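import Cfsg.Agent.H916.LowNondegGeo
import Cfsg.Agent.H887.OmegaBridge
import Cfsg.Agent.H925.OrthNot
import Cfsg.Agent.H922.OddThree

/-!
# Orthogonal decompositions into two halves of dimension at least four, `|F| ≥ 3`
-/

set_option autoImplicit false
set_option linter.unusedSectionVars false

namespace Cfsg.Agent.H926.Halves

open QuadraticMap hiding proj
open Cfsg.Agent.LieClassical.OrthCore Cfsg.Agent.LieClassical.OrthTrans
  Cfsg.Agent.LieClassical.OrthFinite Cfsg.Agent.LieClassical.OrthSimple Cfsg.Agent.H885.RootT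
  Cfsg.Agent.H885.Irr Cfsg.Agent.H885.Nondeg Cfsg.Agent.H885.NondegGeo Cfsg.Agent.H883.Bridge
  Cfsg.Agent.H916.LowNondeg Cfsg.Agent.H916.LowNondegGeo

section General

variable {F V : Type*} [Field F] [AddCommGroup V] [Module F V] {Q : QuadraticForm F V}
variable {W U : Submodule F V}

/-- **Overgroups of the stabiliser of a nondegenerate subspace** `U`, `4 ≤ dim U`, `3 ≤ |F|`: everything, or
all elements map `U` into `U` or `W`. -/
theorem overgroups [Finite F] [Module.Finite F V] (h : Split Q W U) (hG : Good Q)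
    (hq : ∃ c : F, c ≠ 0 ∧ c ≠ 1) (hU : 4 ≤ Module.finrank F U)
    (hex : ¬ (Nat.card F ≤ 3 ∧ Module.finrank F W = 2 ∧ ∃ x ∈ W, x ≠ 0 ∧ Q x = 0))
    {M : Subgroup (V ≃ₗ[F] V)} (hM : stab W ⊓ E Q ≤ M) (hMO : M ≤ O Q) :
    E Q ≤ M ∨ ∀ g ∈ M, U.map (g : V →ₗ[F] V) ≤ U ∨ U.map (g : V →ₗ[F] V) ≤ W := by
  have hQ := hG.nondeg
  have hUn : NdOn Q U := h.ndOn_right hQ
  obtain ⟨x, hxU, hx0, hQx, -⟩ := exists_sing_mem_perp (Q := Q) ![(0 : V)] U (by omega)
  by_cases hT : ∀ (a w : V) (hQa : Q a = 0), a ∈ U → a ≠ 0 → w ∈ W → w ∈ T M Q a hQa → w = 0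
  · right
    intro g hgM
    have hgO : g ∈ O Q := hMO hgM
    have S : Setup Q W U M := ⟨h, hQ, hM, hMO, hU, hT⟩
    have hcon : ∀ x ∈ U, Q x = 0 → g x ∈ U ∨ g x ∈ W := by
      intro x hx hQx
      by_cases hx0 : x = 0
      · subst hx0
        left
        rw [map_zero]
        exact U.zero_mem
      · exact S.key3 hq hgM hx hx0 hQx
    by_cases hc1 : ∀ x ∈ U, Q x = 0 → g x ∈ U
    · left
      exact Submodule.map_le_iff_le_comap.2 (le_of_sing' hUn hxU hx0 hQx (S := U.comap (g : V →ₗ[F] V)) hc1)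
    by_cases hc2 : ∀ x ∈ U, Q x = 0 → g x ∈ W
    · right
      exact Submodule.map_le_iff_le_comap.2 (le_of_sing' hUn hxU hx0 hQx (S := W.comap (g : V →ₗ[F] V)) hc2)
    exfalso
    push Not at hc1 hc2
    obtain ⟨x₁, hx₁, hQx₁, hgx₁⟩ := hc1
    obtain ⟨x₂, hx₂, hQx₂, hgx₂⟩ := hc2
    have h1 : g x₁ ∈ W := (hcon x₁ hx₁ hQx₁).resolve_left hgx₁
    have h2 : g x₂ ∈ U := (hcon x₂ hx₂ hQx₂).resolve_right hgx₂
    have h3 : polar Q x₁ x₂ = 0 := by rw [← polar_map hgO]; exact h.perp _ h1 _ h2
    have h4 : Q (x₁ + x₂) = 0 := by rw [Q_add, hQx₁, hQx₂, h3]; simp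
    rcases hcon (x₁ + x₂) (U.add_mem hx₁ hx₂) h4 with h5 | h5
    · rw [map_add] at h5
      apply hgx₁
      have := U.sub_mem h5 h2
      rwa [add_sub_cancel_right] at this
    · rw [map_add] at h5
      apply hgx₂
      have := W.sub_mem h5 h1
      rwa [add_sub_cancel_left] at this
  · left
    push Not at hT
    obtain ⟨a, w, hQa, ha, ha0, hw, hwT, hw0⟩ := hT
    exact E_le_of_mem_T' h hG hU hex hM hMO ha ha0 hQa hw hw0 hwT

end General

section Geo

variable {ι : Type} [Fintype ι] [DecidableEq ι] {F : Type*} [Field F] [Fintype F]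

open Cfsg.Geo Cfsg.Agent.H887.OmegaBridge

/-- **Two orthogonal nondegenerate halves** of dimension at least four, `|F| ≥ 3` (isometric or not). -/
theorem halves_isMaximalIn {Q : (ι → F) → F} (hQ : IsNondegenerateQuadraticForm Q) (hF : 3 ≤ Fintype.card F)
    {m : ℕ} (hm : 4 ≤ m) {D : Fin 2 → Submodule F (ι → F)}
    (hD : IsNondegenerateMDecomposition (QuadraticMap.polar Q) m D) :
    IsMaximalIn (omegaGL Q) (decompositionStabilizer D ⊓ omegaGL Q) := by
  have hcard := Cfsg.Agent.H922.mul_eq_card hD.decomp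
  have hdim : Module.finrank F (ι → F) = Fintype.card ι := Module.finrank_fintype_fun_eq_card F
  have hG : Good (qf Q hQ) := good_of_finite (nondeg_qf Q hQ) (by omega)
  have hne : ∀ i, D i ≠ ⊥ := by
    intro i h
    have := hD.decomp.finrank_eq i
    rw [h, finrank_bot] at this
    omega
  have hsup : D 0 ⊔ D 1 = ⊤ := by
    rw [eq_top_iff, ← hD.decomp.iSup_eq_top]
    apply iSup_le
    intro i
    fin_cases i
    · exact le_sup_left
    · exact le_sup_right
  have hS : Split (qf Q hQ) (D 0) (D 1) :=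
    ⟨fun w hw u hu => hD.orthogonal 0 1 (by decide) w hw u hu, hsup⟩
  have hq : ∃ c : F, c ≠ 0 ∧ c ≠ 1 := exists_ne_zero_one (by rw [Nat.card_eq_fintype_card]; exact hF)
  refine isMaximalIn_omegaGL Q hQ hG (decompositionStabilizer D) (decStab D)
    (H887.OmegaBridge.mem_decompositionStabilizer_iff D) ?_ ?_
  · by_contra hcon
    push Not at hcon
    apply Cfsg.Agent.H925.omegaGL_not_le_decompositionStabilizer hQ (by omega) le_rfl hne hD.decomp.indep
    intro g hg
    rw [H887.OmegaBridge.mem_decompositionStabilizer_iff]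
    exact hcon _ ((mem_omegaGL_iff Q hQ hG g).1 hg)
  · intro H hHE hSH hex
    have hstab : stab (D 0) ⊓ E (qf Q hQ) ≤ H := by
      rintro g ⟨hg0, hgE⟩
      refine hSH g hgE ?_
      have hg1 : g ∈ stab (D 1) := (hS.mem_stab_iff (nondeg_qf Q hQ) (E_le_O hgE)).1 hg0
      refine ⟨1, fun i => ?_⟩
      have hmap : ∀ W : Submodule F (ι → F), g ∈ stab W →
          W.map ((g : (ι → F) ≃ₗ[F] (ι → F)) : (ι → F) →ₗ[F] (ι → F)) = W := by
        intro W hg
        ext v
        constructor
        · rintro ⟨w, hw, rfl⟩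
          exact (hg w).1 hw
        · intro hv
          refine ⟨g.symm v, ?_, g.apply_symm_apply v⟩
          exact (hg _).2 (by rw [LinearEquiv.apply_symm_apply]; exact hv)
      fin_cases i
      · exact hmap _ hg0
      · exact hmap _ hg1
    rcases overgroups hS hG hq (by rw [hD.decomp.finrank_eq]; exact hm)
      (by rw [hD.decomp.finrank_eq]; rintro ⟨-, h, -⟩; omega) hstab (hHE.trans E_le_O) with h | h
    · exact h
    · exfalso
      obtain ⟨g, hgH, hg⟩ := hex
      apply hg
      have hgO : g ∈ O (qf Q hQ) := E_le_O (hHE hgH)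
      -- `g` maps the complement correspondingly
      have hfr : ∀ W : Submodule F (ι → F), Module.finrank F
          (W.map ((g : (ι → F) ≃ₗ[F] (ι → F)) : (ι → F) →ₗ[F] (ι → F))) = Module.finrank F W :=
        fun W => LinearEquiv.finrank_map_eq g W
      have heq : ∀ i k, (D i).map ((g : (ι → F) ≃ₗ[F] (ι → F)) : (ι → F) →ₗ[F] (ι → F)) ≤ D k →
          (D i).map ((g : (ι → F) ≃ₗ[F] (ι → F)) : (ι → F) →ₗ[F] (ι → F)) = D k := by
        intro i k hle
        refine Submodule.eq_of_le_of_finrank_eq hle ?_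
        rw [hfr, hD.decomp.finrank_eq, hD.decomp.finrank_eq]
      -- the orthogonal complement of `D k` is the other one
      have hperp : ∀ (k l : Fin 2), k ≠ l → ∀ v, (∀ w ∈ D k, QuadraticMap.polar Q w v = 0) → v ∈ D l := by
        intro k l hkl v hv
        have hkl' : D k ⊔ D l = ⊤ := by
          fin_cases k <;> fin_cases l
          · exact absurd rfl hkl
          · exact hsup
          · rw [sup_comm]; exact hsup
          · exact absurd rfl hkl
        have hv' : v ∈ D k ⊔ D l := by rw [hkl']; trivial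
        obtain ⟨a, ha, b, hb, rfl⟩ := Submodule.mem_sup.1 hv'
        have ha0 : a = 0 := by
          by_contra hne0
          obtain ⟨⟨x, hx, hxa⟩, -⟩ := hD.nondegenerate k a ha hne0
          apply hxa
          have h1 := hv x hx
          rw [hQ.polar_bilinear.add_right, hD.orthogonal k l hkl x hx b hb, add_zero] at h1
          exact h1
        rw [ha0, zero_add]
        exact hb
      have hother : ∀ k l : Fin 2, k ≠ l →
          (D 1).map ((g : (ι → F) ≃ₗ[F] (ι → F)) : (ι → F) →ₗ[F] (ι → F)) = D k →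
          (D 0).map ((g : (ι → F) ≃ₗ[F] (ι → F)) : (ι → F) →ₗ[F] (ι → F)) = D l := by
        intro k l hkl h1
        apply heq
        rintro _ ⟨w, hw, rfl⟩
        apply hperp k l hkl
        intro x hx
        rw [← h1] at hx
        obtain ⟨u, hu, rfl⟩ := hx
        have h2 := polar_map hgO u w
        show polar (qf Q hQ) (g u) (g w) = 0
        rw [h2]
        exact hD.orthogonal 1 0 (by decide) u hu w hw
      rcases h g hgH with h1 | h1
      · have e1 := heq 1 1 h1
        have e0 := hother 1 0 (by decide) e1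
        refine ⟨1, fun i => ?_⟩
        fin_cases i
        · exact e0
        · exact e1
      · have e1 := heq 1 0 h1
        have e0 := hother 0 1 (by decide) e1
        refine ⟨Equiv.swap 0 1, fun i => ?_⟩
        fin_cases i
        · show _ = D (Equiv.swap 0 1 0)
          rw [Equiv.swap_apply_left]
          exact e0
        · show _ = D (Equiv.swap 0 1 1)
          rw [Equiv.swap_apply_right]
          exact e1

end Geo

end Cfsg.Agent.H926.Halves
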