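import Cfsg.Agent.H886.PlaneMax

/-!
Orthogonal decompositions into at least five anisotropic planes: the stabiliser in `Ω` is maximal
(`|F| ≠ 3`).  The case of at least seven members is in `H886.PlaneMax`; the present file reduces the support
of the singular vector of `exists_siegel` to two members.
-/

set_option autoImplicit false
set_option linter.unusedSectionVars false
set_option linter.unusedVariables false

namespace Cfsg.Agent.H926.PlaneLow

open QuadraticMap Cfsg.Agent.LieClassical.OrthCore Cfsg.Agent.LieClassical.OrthTrans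
  Cfsg.Agent.LieClassical.OrthFinite Cfsg.Agent.LieClassical.OrthSimple Cfsg.Agent.H883.Bridge
  Cfsg.Agent.H883.Root Cfsg.Agent.H883.Sub Cfsg.Agent.H886.Decomp Cfsg.Agent.H886.Rigid
  Cfsg.Agent.H886.Plane Cfsg.Agent.H886.PlaneRigid Cfsg.Agent.H886.DecTools
  Cfsg.Agent.H886.PlaneNonRigid Cfsg.Agent.H886.PlaneMax

variable {F V : Type*} [Field F] [AddCommGroup V] [Module F V] {Q : QuadraticForm F V} {t : ℕ}
  {D : Fin t → Submodule F V} {p : Fin t → V →ₗ[F] V} {M : Subgroup (V ≃ₗ[F] V)}

/-- In an anisotropic space without square root of `-1`, the norms of orthogonal vectors differ by a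
square. -/
theorem isSquare_mul_of_perp {W : Submodule F V} (hW : AP Q W) (hsq : ∀ a b : F, ¬ IsSquare a →
    ¬ IsSquare b → IsSquare (a * b)) (hm1 : ¬ IsSquare (-1 : F)) {c e : V} (hc : c ∈ W) (hc0 : c ≠ 0)
    (he : e ∈ W) (he0 : e ≠ 0) (hce : polar Q c e = 0) : IsSquare (Q c * Q e) := by
  by_contra hn
  obtain ⟨r, hr⟩ := hsq _ _ hm1 hn
  have hQc := hW.ne hc hc0
  have h1 : Q ((r * (Q c)⁻¹) • c + e) = 0 := by
    rw [Q_add, QuadraticMap.map_smul, polar_smul_left, hce, smul_zero, add_zero, smul_eq_mul]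
    have h2 : r * (Q c)⁻¹ * (r * (Q c)⁻¹) * Q c = (r * r) * (Q c)⁻¹ * ((Q c)⁻¹ * Q c) := by ring
    rw [h2, inv_mul_cancel₀ hQc, mul_one, ← hr]
    have h3 : -1 * (Q c * Q e) * (Q c)⁻¹ = - Q e * (Q c * (Q c)⁻¹) := by ring
    rw [h3, mul_inv_cancel₀ hQc]
    ring
  have h2 := hW.aniso _ (W.add_mem (W.smul_mem _ hc) he) h1
  have h3 : polar Q e ((r * (Q c)⁻¹) • c + e) = 0 := by rw [h2, polar_zero_right]
  rw [polar_add_right, polar_smul_right, polar_comm Q e c, hce, smul_zero, zero_add, polar_self'] at h3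
  have h4 : (2 : F) ≠ 0 := by
    intro h5
    apply hm1
    refine ⟨1, ?_⟩
    have h6 : (1 : F) + 1 = 0 := by rw [one_add_one_eq_two]; exact h5
    linear_combination -h6
  rcases mul_eq_zero.1 h3 with h5 | h5
  · exact h4 h5
  · exact hW.ne he he0 h5

section Planes

variable [Finite F] [FiniteDimensional F V]

/-- `has_member` with a general correction of the reflections. -/
theorem has_member' (hq : Nat.card F ≠ 3) (hG : Good Q) (h : Dec Q D p) (hD : ∀ i, AP Q (D i))
    (hMO : M ≤ O Q) (hH : stabFamily D ⊓ E Q ≤ M) {s w₀ : V} {j : Fin t}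
    (hsj : p j s = 0)
    (hcor : ∀ c ∈ D j, ∀ hc : Q c ≠ 0, ∃ g ∈ stabFamily D ⊓ E Q, g s = s ∧
      ∀ y ∈ D j, g y = refl Q c hc y)
    (hw : Has Q M s w₀) (hwj : p j w₀ ≠ 0) {w : V}
    (hwD : w ∈ D j) : Has Q M s w := by
  obtain ⟨a, b, hab⟩ := (hD j).exists_fr (h.mem j w₀) hwj
  obtain ⟨a', ha', hQa', haw', -⟩ := (hD j).exists_nonorth hq hab.ha hab.ha0 (h.mem j w₀) hwj
    (h.mem j w₀) hwj
  have hQa := (hD j).ne hab.ha hab.ha0
  have hQa0' : Q a' ≠ 0 := by rw [hQa']; exact hQa
  have fixs : ∀ c (hc : c ∈ D j) (hQc : Q c ≠ 0), refl Q c hQc s = s := by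
    intro c hc hQc
    rw [refl_apply, h.polar_right j s hc, hsj, polar_zero_right, mul_zero, zero_smul, sub_zero]
  -- a nonzero vector of `D j`
  have h1 := hw.map (g := refl Q a hQa * refl Q a' hQa0')
    ((O Q).mul_mem (refl_mem_O _) (refl_mem_O _))
    (hH (h.refl_mul_refl_mem hG hab.ha ha' hQa hQa0' hQa'.symm))
  have e1 : (refl Q a hQa * refl Q a' hQa0') s = s := by
    show refl Q a hQa (refl Q a' hQa0' s) = s
    rw [fixs a' ha', fixs a hab.ha]
  set μ := (Q a')⁻¹ * polar Q a' w₀ with hμ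
  have hμ0 : μ ≠ 0 := by
    refine mul_ne_zero (inv_ne_zero hQa0') ?_
    rw [h.polar_right j w₀ ha', polar_comm]
    exact haw'
  have e2 : (refl Q a hQa * refl Q a' hQa0') w₀ = w₀ - μ • refl Q a hQa a' := by
    show refl Q a hQa (refl Q a' hQa0' w₀) = _
    rw [refl_apply (v := a'), map_sub, map_smul, ← hμ]
    congr 1
    rw [refl_apply, h.polar_right j w₀ hab.ha, hab.hax, mul_zero, zero_smul, sub_zero]
  rw [e1, e2] at h1
  have h2 := hw.sub h1
  rw [sub_sub_cancel] at h2
  have hmem : μ • refl Q a hQa a' ∈ D j :=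
    (D j).smul_mem _ (h.refl_mem hab.ha hQa ha')
  have hne : μ • refl Q a hQa a' ≠ 0 := by
    refine smul_ne_zero hμ0 ?_
    intro h0
    rw [LinearEquiv.map_eq_zero_iff] at h0
    rw [h0, QuadraticMap.map_zero] at hQa0'
    exact hQa0' rfl
  refine (hD j).mem_of_closed (hasGroup Q M hw.sing) ?_ (w := μ • refl Q a hQa a') h2 hmem hne hwD
  intro c hc hQc y hy hyD
  obtain ⟨g, hg, hgs, hgy⟩ := hcor c hc hQc
  have h3 := Has.map (show Has Q M s y from hy) (g := g) (E_le_O hg.2) (hH hg)
  rw [hgs, hgy y hyD] at h3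
  exact h3

/-- From a vector `s` with components of opposite norms to a singular vector of support two. -/
theorem exists_short (hq : Nat.card F ≠ 3) (hG : Good Q) (h : Dec Q D p) (hD : ∀ i, AP Q (D i))
    (hMO : M ≤ O Q) (hH : stabFamily D ⊓ E Q ≤ M) (hm1 : ¬ IsSquare (-1 : F)) {s w : V}
    {i j k : Fin t} (hij : i ≠ j) (hik : i ≠ k) (hjk : j ≠ k) (hsk : p k s = 0)
    (hsi : p i s ≠ 0) (hsj : p j s ≠ 0) (hneg : Q (p j s) = -Q (p i s)) (hw : Has Q M s w)
    (hwk : p k w ≠ 0) {e : V} (he : e ∈ D i) (hes : polar Q e (p i s) = 0)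
    (hew : polar Q e (p i w) ≠ 0) :
    ∃ s' w' : V, s' ≠ 0 ∧ Has Q M s' w' ∧ ∃ S : Finset (Fin t), S.card ≤ 2 ∧
      (∀ k, k ∉ S → p k s' = 0) ∧ ∃ k, k ∉ S ∧ p k w' ≠ 0 := by
  classical
  have he0 : e ≠ 0 := by
    rintro rfl
    rw [polar_zero_left] at hew
    exact hew rfl
  have hQe := (hD i).ne he he0
  have hQsi := (hD i).ne (h.mem i s) hsi
  have hQsj := (hD j).ne (h.mem j s) hsj
  -- a vector of `D j` orthogonal to `s`
  obtain ⟨e', _, hfr⟩ := (hD j).exists_fr (h.mem j s) hsj
  have hQe' := (hD j).ne hfr.ha hfr.ha0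
  have hsq1 : IsSquare (Q (p i s) * Q e) :=
    isSquare_mul_of_perp (hD i) (fun a b => isSquare_mul_of_not) hm1 (h.mem i s) hsi he he0
      (by rw [polar_comm]; exact hes)
  have hsq2 : IsSquare (Q (p j s) * Q e') :=
    isSquare_mul_of_perp (hD j) (fun a b => isSquare_mul_of_not) hm1 (h.mem j s) hsj hfr.ha hfr.ha0
      (by rw [polar_comm]; exact hfr.hax)
  have fixk : ∀ c (hc : c ∈ D k) (hQc : Q c ≠ 0), refl Q c hQc s = s := by
    intro c hc hQc
    rw [refl_apply, h.polar_right k s hc, hsk, polar_zero_right, mul_zero, zero_smul, sub_zero]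
  have fixe : refl Q e hQe s = s := by
    rw [refl_apply, h.polar_right i s he, hes, mul_zero, zero_smul, sub_zero]
  have fixe' : refl Q e' hQe' s = s := by
    rw [refl_apply, h.polar_right j s hfr.ha, hfr.hax, mul_zero, zero_smul, sub_zero]
  have hk' : ∀ z ∈ D k, Has Q M s z := by
    intro z hz
    refine has_member' hq hG h hD hMO hH hsk ?_ hw hwk hz
    intro c hc hQc
    by_cases hce : IsSquare (Q c * Q e)
    · obtain ⟨r, hr0, hr⟩ := exists_factor hQc hQe hce
      refine ⟨refl Q c hQc * refl Q e hQe, ⟨(stabFamily D).mul_mem (h.refl_mem_stabFamily hc _)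
        (h.refl_mem_stabFamily he _), refl_mul_refl_factor hG hQc hQe hr0 hr⟩, ?_, ?_⟩
      · show refl Q c hQc (refl Q e hQe s) = s
        rw [fixe, fixk c hc]
      · intro y hy
        show refl Q c hQc (refl Q e hQe y) = refl Q c hQc y
        rw [refl_apply (v := e), h.orth i k hik e he y hy, mul_zero, zero_smul, sub_zero]
    · have hce' : IsSquare (Q c * Q e') := by
        -- `Q c Q e` is a non-square, `Q e ~ Q (p i s)`, `Q e' ~ - Q (p i s)`
        have h1 := isSquare_mul_of_not hm1 hce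
        obtain ⟨r1, hr1⟩ := hsq1
        obtain ⟨r2, hr2⟩ := hsq2
        obtain ⟨r3, hr3⟩ := h1
        rw [hneg] at hr2
        have hE0 : Q e ≠ 0 := hQe
        refine ⟨r1 * r2 * r3 * (Q e)⁻¹ * (Q (p i s))⁻¹, ?_⟩
        have h4 : Q c * Q e' = (-(Q (p i s)) * Q e') * (Q (p i s) * Q e) * (-1 * (Q c * Q e)) *
            ((Q e)⁻¹ * (Q e)⁻¹) * ((Q (p i s))⁻¹ * (Q (p i s))⁻¹) := by
          field_simp
        rw [h4, hr1, hr2, hr3]
        ring
      obtain ⟨r, hr0, hr⟩ := exists_factor hQc hQe' hce'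
      refine ⟨refl Q c hQc * refl Q e' hQe', ⟨(stabFamily D).mul_mem (h.refl_mem_stabFamily hc _)
        (h.refl_mem_stabFamily hfr.ha _), refl_mul_refl_factor hG hQc hQe' hr0 hr⟩, ?_, ?_⟩
      · show refl Q c hQc (refl Q e' hQe' s) = s
        rw [fixe', fixk c hc]
      · intro y hy
        show refl Q c hQc (refl Q e' hQe' y) = refl Q c hQc y
        rw [refl_apply (v := e'), h.orth j k hjk e' hfr.ha y hy, mul_zero, zero_smul, sub_zero]
  -- the vector `μ e`
  obtain ⟨c, hc, hc0, hQc⟩ := (hD k).exists_value (Q e) hQe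
  have hQc0 : Q c ≠ 0 := by rw [hQc]; exact hQe
  have h1 := hw.map (g := refl Q e hQe * refl Q c hQc0)
    ((O Q).mul_mem (refl_mem_O _) (refl_mem_O _))
    (hH (h.refl_mul_refl_mem hG he hc hQe hQc0 hQc.symm))
  have e1 : (refl Q e hQe * refl Q c hQc0) s = s := by
    show refl Q e hQe (refl Q c hQc0 s) = s
    rw [fixk c hc, fixe]
  set μ := (Q e)⁻¹ * polar Q e w with hμ
  set ν := (Q c)⁻¹ * polar Q c w with hν
  have hμ0 : μ ≠ 0 := by
    refine mul_ne_zero (inv_ne_zero hQe) ?_
    rw [h.polar_right i w he]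
    exact hew
  have e2 : (refl Q e hQe * refl Q c hQc0) w = w - μ • e - ν • c := by
    show refl Q e hQe (refl Q c hQc0 w) = _
    have e3 : refl Q e hQe c = c := by
      rw [refl_apply, h.orth i k hik e he c hc, mul_zero, zero_smul, sub_zero]
    rw [refl_apply (v := c), map_sub, map_smul, ← hν, e3, refl_apply, ← hμ]
  rw [e1, e2] at h1
  have h2 := (hw.sub h1).sub (hk' (ν • c) ((D k).smul_mem _ hc))
  have e3 : w - (w - μ • e - ν • c) - ν • c = μ • e := by abel
  rw [e3] at h2
  -- the singular vector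
  have hQμ : Q (μ • e) ≠ 0 := (hD i).ne ((D i).smul_mem _ he) (smul_ne_zero hμ0 he0)
  obtain ⟨z, hz, hz0, hQz⟩ := (hD k).exists_value (-Q (μ • e)) (neg_ne_zero.2 hQμ)
  have h3 := h2.add (hk' z hz)
  have hv : Q (μ • e + z) = 0 := by
    rw [Q_add, hQz, h.orth i k hik _ ((D i).smul_mem _ he) z hz]
    ring
  have h4 := h3.swap hv
  refine ⟨μ • e + z, -s, ?_, h4, {i, k}, Finset.card_le_two, ?_, j, ?_, ?_⟩
  · intro h0
    have h5 := congrArg (p k) h0
    rw [map_add, h.other k i hik.symm _ ((D i).smul_mem _ he), h.self k z hz, zero_add,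
      map_zero] at h5
    exact hz0 h5
  · intro l hl
    simp only [Finset.mem_insert, Finset.mem_singleton, not_or] at hl
    rw [map_add, h.other l i hl.1 _ ((D i).smul_mem _ he), h.other l k hl.2 z hz, add_zero]
  · simp only [Finset.mem_insert, Finset.mem_singleton, not_or]
    exact ⟨hij.symm, hjk⟩
  · rw [map_neg]
    exact neg_ne_zero.2 hsj

/-- **A linked vector with three nonzero components gives a Siegel transformation.** -/
theorem exists_siegel2 (hq : Nat.card F ≠ 3) (hG : Good Q) (h : Dec Q D p) (hD : ∀ i, AP Q (D i)) (ht : 5 ≤ t)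
    (hMO : M ≤ O Q) (hH : stabFamily D ⊓ E Q ≤ M) {x : V} (hx : Linked Q D M x) {i j l : Fin t}
    (hij : i ≠ j) (hil : i ≠ l) (hjl : j ≠ l) (hi : p i x ≠ 0) (hj : p j x ≠ 0) (hl : p l x ≠ 0) :
    ∃ s w : V, s ≠ 0 ∧ Has Q M s w ∧ ∃ S : Finset (Fin t), S.card ≤ 2 ∧ (∀ k, k ∉ S → p k s = 0) ∧
      ∃ k, k ∉ S ∧ p k w ≠ 0 := by
  classical
  obtain ⟨hQx, -⟩ := id hx
  have hκ : -(Q x)⁻¹ ≠ 0 := neg_ne_zero.2 (inv_ne_zero hQx)
  have hrep : ∀ m : Fin t, ∀ v : F, v ≠ 0 → ∃ y ∈ D m, Q y = v := fun m v hv => by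
    obtain ⟨y, hy, -, hQy⟩ := (hD m).exists_value v hv
    exact ⟨y, hy, hQy⟩
  -- pairs
  obtain ⟨c, hc, d, hd, hQc, hQd, hcx, hdx, hcd⟩ :=
    exists_pair_sing (hD i) (hD j) (h.mem i x) hi (h.mem j x) hj
  have hc0 : c ≠ 0 := by
    rintro rfl
    exact hQc (QuadraticMap.map_zero Q)
  have hpcd : polar Q c d = 0 := h.orth i j hij c hc d hd
  have hcx' : polar Q c x = Q c := by rw [h.polar_right i x hc, hcx]
  have hdx' : polar Q d x = Q d := by rw [h.polar_right j x hd, hdx]
  have hQcd : Q (c + d) = 0 := by rw [Q_add, hpcd, add_zero, hcd]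
  have hpix : ∀ k, k ≠ i → k ≠ j → p k (c + d) = 0 := by
    intro k h1 h2
    rw [map_add, h.other k i h1 c hc, h.other k j h2 d hd, add_zero]
  have hcd0 : c + d ≠ 0 := by
    intro h0
    have := congrArg (p i) h0
    rw [map_add, h.self i c hc, h.other i j hij d hd, add_zero, map_zero] at this
    exact hc0 this
  have hxcd : polar Q (c + d) x = 0 := by rw [polar_add_left, hcx', hdx', hcd]
  have hgx : (refl Q c hQc * refl Q d hQd) x = x - (c + d) := by
    show refl Q c hQc (refl Q d hQd x) = _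
    rw [refl_pair_apply h hd hQd hdx, refl_pair_apply h hc hQc (by
      rw [map_sub, h.other i j hij d hd, sub_zero]; exact hcx)]
    abel
  have hgO : refl Q c hQc * refl Q d hQd ∈ O Q := (O Q).mul_mem (refl_mem_O _) (refl_mem_O _)
  have hgD : refl Q c hQc * refl Q d hQd ∈ stabFamily D :=
    (stabFamily D).mul_mem (h.refl_mem_stabFamily hc _) (h.refl_mem_stabFamily hd _)
  -- the short case
  have short : (∃ g ∈ stabFamily D ⊓ E Q, g x = x - (c + d)) →
      ∃ s w : V, s ≠ 0 ∧ Has Q M s w ∧ ∃ S : Finset (Fin t), S.card ≤ 2 ∧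
        (∀ k, k ∉ S → p k s = 0) ∧ ∃ k, k ∉ S ∧ p k w ≠ 0 := by
    rintro ⟨g, hg, hgx⟩
    refine ⟨c + d, (-(Q x)⁻¹) • x, hcd0, has_of_move h hG hMO hH hx hg hgx hQcd hxcd, {i, j},
      Finset.card_le_two, ?_, l, ?_, ?_⟩
    · intro k hk
      simp only [Finset.mem_insert, Finset.mem_singleton, not_or] at hk
      exact hpix k hk.1 hk.2
    · simp only [Finset.mem_insert, Finset.mem_singleton, not_or]
      exact ⟨Ne.symm hil, Ne.symm hjl⟩
    · rw [map_smul]
      exact smul_ne_zero hκ hl
  by_cases hfull : ∃ m, p m x = 0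
  · obtain ⟨m, hm⟩ := hfull
    apply short
    obtain ⟨g, hg, hg'⟩ := exists_mem h hG m (hrep m) hgO hgD
    exact ⟨g, hg, by rw [hg' x hm, hgx]⟩
  push Not at hfull
  by_cases hsq : IsSquare (-1 : F)
  · apply short
    obtain ⟨e, he⟩ := hsq
    have he0 : e ≠ 0 := by
      rintro rfl
      rw [mul_zero] at he
      exact (neg_ne_zero.2 one_ne_zero) he
    refine ⟨_, ⟨hgD, refl_mul_refl_factor hG hQc hQd he0 ?_⟩, hgx⟩
    rw [← he]
    linear_combination hcd
  -- two pairs
  obtain ⟨l', hl'S⟩ := exists_notMem_finset ({i, j, l} : Finset (Fin t))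
    (lt_of_le_of_lt Finset.card_le_three (by omega))
  obtain ⟨k, hkS⟩ := exists_notMem_finset ({i, j, l, l'} : Finset (Fin t))
    (lt_of_le_of_lt Finset.card_le_four (by omega))
  obtain ⟨c', hc', d', hd', hQc', hQd', hcx2, hdx2, hcd2⟩ :=
    exists_pair_sing (hD l) (hD l') (h.mem l x) hl (h.mem l' x) (hfull l')
  simp only [Finset.mem_insert, Finset.mem_singleton, not_or] at hl'S
  obtain ⟨hl'i, hl'j, hl'l⟩ := hl'S
  have o1 : polar Q c c' = 0 := h.orth i l hil c hc c' hc'
  have o2 : polar Q c d' = 0 := h.orth i l' (Ne.symm hl'i) c hc d' hd'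
  have o3 : polar Q d c' = 0 := h.orth j l hjl d hd c' hc'
  have o4 : polar Q d d' = 0 := h.orth j l' (Ne.symm hl'j) d hd d' hd'
  have o5 : polar Q c' d' = 0 := h.orth l l' (Ne.symm hl'l) c' hc' d' hd'
  have hcx2' : polar Q c' x = Q c' := by rw [h.polar_right l x hc', hcx2]
  have hdx2' : polar Q d' x = Q d' := by rw [h.polar_right l' x hd', hdx2]
  have hgE : refl Q c hQc * refl Q d hQd * (refl Q c' hQc' * refl Q d' hQd') ∈ E Q := by
    have hd1 : Q d = -Q c := by linear_combination hcd
    have hd2 : Q d' = -Q c' := by linear_combination hcd2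
    by_cases hcc : IsSquare (Q c * Q c')
    · obtain ⟨e, he, hQ⟩ := exists_factor hQc hQc' hcc
      have e1 : refl Q c hQc * refl Q d hQd * (refl Q c' hQc' * refl Q d' hQd') =
          (refl Q c hQc * refl Q c' hQc') * (refl Q d hQd * refl Q d' hQd') := by
        have := refl_comm (Q := Q) hQd hQc' o3
        calc _ = refl Q c hQc * (refl Q d hQd * refl Q c' hQc') * refl Q d' hQd' := by group
          _ = _ := by rw [this]; group
      rw [e1]
      exact (E Q).mul_mem (refl_mul_refl_factor hG hQc hQc' he hQ)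
        (refl_mul_refl_factor hG hQd hQd' he (by rw [hd1, hd2, hQ]; ring))
    · have hcc' : IsSquare (Q c * Q d') := by
        have := isSquare_mul_of_not hsq hcc
        rw [hd2]
        obtain ⟨r, hr⟩ := this
        exact ⟨r, by rw [← hr]; ring⟩
      obtain ⟨e, he, hQ⟩ := exists_factor hQc hQd' hcc'
      have e1 : refl Q c hQc * refl Q d hQd * (refl Q c' hQc' * refl Q d' hQd') =
          (refl Q d hQd * refl Q c' hQc') * (refl Q c hQc * refl Q d' hQd') := by
        have h1 := refl_comm (Q := Q) hQc hQd hpcd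
        have h2 := refl_comm (Q := Q) hQc hQc' o1
        calc _ = (refl Q c hQc * refl Q d hQd) * refl Q c' hQc' * refl Q d' hQd' := by group
          _ = refl Q d hQd * (refl Q c hQc * refl Q c' hQc') * refl Q d' hQd' := by rw [h1]; group
          _ = _ := by rw [h2]; group
      rw [e1]
      exact (E Q).mul_mem (refl_mul_refl_factor hG hQd hQc' he (by
          rw [hd1]
          linear_combination -hQ + hd2))
        (refl_mul_refl_factor hG hQc hQd' he hQ)
  have hgD' : refl Q c hQc * refl Q d hQd * (refl Q c' hQc' * refl Q d' hQd') ∈ stabFamily D :=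
    (stabFamily D).mul_mem hgD
      ((stabFamily D).mul_mem (h.refl_mem_stabFamily hc' _) (h.refl_mem_stabFamily hd' _))
  have hgx' : (refl Q c hQc * refl Q d hQd * (refl Q c' hQc' * refl Q d' hQd')) x =
      x - (c + d + (c' + d')) := by
    show (refl Q c hQc * refl Q d hQd) (refl Q c' hQc' (refl Q d' hQd' x)) = _
    rw [refl_pair_apply h hd' hQd' hdx2, refl_pair_apply h hc' hQc' (by
      rw [map_sub, h.other l l' (Ne.symm hl'l) d' hd', sub_zero]; exact hcx2)]
    have e2 : (refl Q c hQc * refl Q d hQd) (x - d' - c') =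
        (refl Q c hQc * refl Q d hQd) x - (d' + c') := by
      rw [sub_sub, map_sub, map_add]
      have f1 : (refl Q c hQc * refl Q d hQd) d' = d' := by
        show refl Q c hQc (refl Q d hQd d') = d'
        rw [refl_apply (v := d), o4, mul_zero, zero_smul, sub_zero, refl_apply, o2, mul_zero, zero_smul,
          sub_zero]
      have f2 : (refl Q c hQc * refl Q d hQd) c' = c' := by
        show refl Q c hQc (refl Q d hQd c') = c'
        rw [refl_apply (v := d), o3, mul_zero, zero_smul, sub_zero, refl_apply, o1, mul_zero, zero_smul,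
          sub_zero]
      rw [f1, f2]
    rw [e2, hgx]
    abel
  have hQs : Q (c + d + (c' + d')) = 0 := by
    rw [Q_add, hQcd, Q_add, o5, polar_add_left, polar_add_right, polar_add_right, o1, o2, o3, o4]
    linear_combination hcd2
  have hxs : polar Q (c + d + (c' + d')) x = 0 := by
    rw [polar_add_left, hxcd, polar_add_left, hcx2', hdx2']
    linear_combination hcd2
  -- reduce the support
  have hw := has_of_move h hG hMO hH hx ⟨hgD', hgE⟩ hgx' hQs hxs
  have hps : p i (c + d + (c' + d')) = c := by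
    rw [map_add, map_add, map_add, h.self i c hc, h.other i j hij d hd, h.other i l hil c' hc',
      h.other i l' (Ne.symm hl'i) d' hd', add_zero, add_zero, add_zero]
  have hpsj : p j (c + d + (c' + d')) = d := by
    rw [map_add, map_add, map_add, h.self j d hd, h.other j i hij.symm c hc, h.other j l hjl c' hc',
      h.other j l' (Ne.symm hl'j) d' hd', add_zero, add_zero, zero_add]
  simp only [Finset.mem_insert, Finset.mem_singleton, not_or] at hkS
  have hpk : p k (c + d + (c' + d')) = 0 := by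
    rw [map_add, hpix k hkS.1 hkS.2.1, map_add, h.other k l hkS.2.2.1 c' hc',
      h.other k l' hkS.2.2.2 d' hd', add_zero, add_zero]
  have hd0 : d ≠ 0 := by
    rintro rfl
    exact hQd (QuadraticMap.map_zero Q)
  have hwk : p k ((-(Q x)⁻¹) • x) ≠ 0 := by
    rw [map_smul]
    exact smul_ne_zero hκ (hfull k)
  have hd1 : Q d = -Q c := by linear_combination hcd
  obtain ⟨e, _, hfc⟩ := (hD i).exists_fr hc hc0
  obtain ⟨e', _, hfd⟩ := (hD j).exists_fr hd hd0
  by_cases h1 : polar Q e (p i x) = 0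
  · by_cases h2 : polar Q e' (p j x) = 0
    · -- short case
      apply short
      have hQe := (hD i).ne hfc.ha hfc.ha0
      have hQe' := (hD j).ne hfd.ha hfd.ha0
      have hs1 : IsSquare (Q c * Q e) :=
        isSquare_mul_of_perp (hD i) (fun a b => isSquare_mul_of_not) hsq hc hc0 hfc.ha hfc.ha0
          (by rw [polar_comm]; exact hfc.hax)
      have hs2 : IsSquare (Q d * Q e') :=
        isSquare_mul_of_perp (hD j) (fun a b => isSquare_mul_of_not) hsq hd hd0 hfd.ha hfd.ha0
          (by rw [polar_comm]; exact hfd.hax)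
      obtain ⟨r, hr0, hr⟩ := exists_factor hQc hQe hs1
      obtain ⟨r', hr0', hr'⟩ := exists_factor hQd hQe' hs2
      have fe : refl Q e hQe x = x := by
        rw [refl_apply, h.polar_right i x hfc.ha, h1, mul_zero, zero_smul, sub_zero]
      have fe' : refl Q e' hQe' x = x := by
        rw [refl_apply, h.polar_right j x hfd.ha, h2, mul_zero, zero_smul, sub_zero]
      refine ⟨(refl Q c hQc * refl Q e hQe) * (refl Q d hQd * refl Q e' hQe'),
        ⟨(stabFamily D).mul_mem ((stabFamily D).mul_mem (h.refl_mem_stabFamily hc _)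
          (h.refl_mem_stabFamily hfc.ha _)) ((stabFamily D).mul_mem (h.refl_mem_stabFamily hd _)
          (h.refl_mem_stabFamily hfd.ha _)), (E Q).mul_mem
          (refl_mul_refl_factor hG hQc hQe hr0 hr) (refl_mul_refl_factor hG hQd hQe' hr0' hr')⟩, ?_⟩
      show refl Q c hQc (refl Q e hQe (refl Q d hQd (refl Q e' hQe' x))) = _
      rw [fe', refl_pair_apply h hd hQd hdx, map_sub, fe, refl_apply (v := e),
        h.orth i j hij e hfc.ha d hd, mul_zero, zero_smul, sub_zero,
        refl_pair_apply h hc hQc (by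
          rw [map_sub, h.other i j hij d hd, sub_zero]; exact hcx)]
      abel
    · refine exists_short hq hG h hD hMO hH hsq (i := j) (j := i) (k := k) hij.symm
        (Ne.symm hkS.2.1) (Ne.symm hkS.1) hpk (by rw [hpsj]; exact hd0) (by rw [hps]; exact hc0)
        (by rw [hps, hpsj, hd1, neg_neg]) hw hwk (e := e') hfd.ha (by rw [hpsj]; exact hfd.hax) ?_
      rw [map_smul, polar_smul_right]
      exact mul_ne_zero hκ h2
  · refine exists_short hq hG h hD hMO hH hsq (i := i) (j := j) (k := k) hij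
      (Ne.symm hkS.1) (Ne.symm hkS.2.1) hpk (by rw [hps]; exact hc0) (by rw [hpsj]; exact hd0)
      (by rw [hps, hpsj, hd1]) hw hwk (e := e) hfc.ha (by rw [hps]; exact hfc.hax) ?_
    rw [map_smul, polar_smul_right]
    exact mul_ne_zero hκ h1

/-- **Non-rigid overgroups contain `E Q`.** -/
theorem E_le_of_not_rigid (hq : Nat.card F ≠ 3) (hG : Good Q) (h : Dec Q D p)
    (hD : ∀ i, AP Q (D i)) (hiso : ∀ i j, ∃ e : D i ≃ₗ[F] D j, ∀ z : D i, Q (e z : V) = Q (z : V))
    (ht : 5 ≤ t) (hMO : M ≤ O Q) (hH : stabFamily D ⊓ E Q ≤ M) (hR : ¬ Rigid Q D M) : E Q ≤ M := by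
  classical
  have hrep : ∀ m : Fin t, ∀ v : F, v ≠ 0 → ∃ y ∈ D m, Q y = v := fun m v hv => by
    obtain ⟨y, hy, -, hQy⟩ := (hD m).exists_value v hv
    exact ⟨y, hy, hQy⟩
  obtain ⟨x, hx, hxD⟩ : ∃ x, Linked Q D M x ∧ ∀ i, x ∉ D i := by
    unfold Rigid at hR
    push Not at hR
    obtain ⟨i, a, ha, hQa, x, hQx, hM, hx⟩ := hR
    exact ⟨x, ⟨hQx, i, a, ha, hQa, hM⟩, hx⟩
  obtain ⟨x', hx', i₁, i₂, i₃, h12, h13, h23, hc1, hc2, hc3⟩ :=
    exists_three hq hG h hD hiso (by omega) hMO hH hx hxD
  obtain ⟨s, w, hs0, hsw, S, hS, hpS, a, haS, haw⟩ :=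
    exists_siegel2 hq hG h hD (by omega) hMO hH hx' h12 h13 h23 hc1 hc2 hc3
  obtain ⟨b, hb⟩ := exists_notMem_finset (insert a S)
    (lt_of_le_of_lt (Finset.card_insert_le _ _) (by omega))
  obtain ⟨m, hm⟩ := exists_notMem_finset (insert b (insert a S))
    (lt_of_le_of_lt (Finset.card_insert_le _ _)
      (by have := Finset.card_insert_le a S; omega))
  simp only [Finset.mem_insert, not_or] at hb hm
  have hab : a ≠ b := Ne.symm hb.1
  have hA : ∀ w ∈ D a, Has Q M s w := fun w hw =>
    has_member hq hG h hD hMO hH hab (hpS a haS) (hpS b hb.2) hsw haw hw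
  have hB : ∀ w ∈ D b, Has Q M s w := fun w hw =>
    has_other hG h hiso hrep hMO hH hb.1 hm.2.1 (hpS b hb.2) (hpS a haS) (hpS m hm.2.2) hA hw
  -- `u ∈ D a + D b`
  obtain ⟨u, hu, hua, hup⟩ := exists_sing_pair' h hrep hab
  have hu0 : u ≠ 0 := by
    rintro rfl
    exact hua (map_zero _)
  have hU : ∀ i, i ≠ a → i ≠ b → ∀ w ∈ D i, Has Q M u w := fun i hia hib w hw =>
    has_of_two hq hG h hD hiso (by omega) hMO hH hs0 (hpS a haS) (hpS b hb.2) hA hB hab hu hup hia hib hw
  -- `c`, `d` two other members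
  obtain ⟨c, hc⟩ := exists_notMem_finset ({a, b} : Finset (Fin t))
    (lt_of_le_of_lt Finset.card_le_two (by omega))
  obtain ⟨d, hd⟩ := exists_notMem_finset ({a, b, c} : Finset (Fin t))
    (lt_of_le_of_lt Finset.card_le_three (by omega))
  simp only [Finset.mem_insert, Finset.mem_singleton, not_or] at hc hd
  obtain ⟨hca, hcb⟩ := hc
  obtain ⟨hda, hdb, hdc⟩ := hd
  have hcd : c ≠ d := Ne.symm hdc
  have full : ∀ v, Q v = 0 → (∀ i, i ≠ c → i ≠ d → p i v = 0) → Full Q M v := by
    intro v hv hvp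
    have hV : ∀ i, i ≠ c → i ≠ d → ∀ w ∈ D i, Has Q M v w := fun i hic hid w hw =>
      has_of_two hq hG h hD hiso (by omega) hMO hH hu0 (hup c hca hcb) (hup d hda hdb)
        (hU c hca hcb) (hU d hda hdb) hcd hv hvp hic hid hw
    refine ⟨hv, fun z hz => ?_⟩
    -- the part of `z` in `D c + D d`
    set z' := p c z + p d z with hz'
    have hvz' : polar Q v z' = 0 := by
      have h1 : polar Q (∑ i, p i v) z = ∑ i, polar Q (p i v) z :=
        map_sum ((polarBilin Q).flip z) (fun i => p i v) Finset.univ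
      rw [h.sum, hz] at h1
      have h2 : ∀ i, i ≠ c → i ≠ d → polar Q (p i v) z = 0 := by
        intro i hic hid
        rw [hvp i hic hid, polar_zero_left]
      rw [← Finset.sum_subset (Finset.subset_univ ({c, d} : Finset (Fin t))) (by
        intro i _ hi
        simp only [Finset.mem_insert, Finset.mem_singleton, not_or] at hi
        exact h2 i hi.1 hi.2), Finset.sum_pair hcd] at h1
      rw [hz', polar_add_right, h.polar_left c v (h.mem c z), h.polar_left d v (h.mem d z),
        ← h.polar_right c z (h.mem c v), ← h.polar_right d z (h.mem d v)]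
      exact h1.symm
    have hVsum : ∀ S : Finset (Fin t), c ∉ S → d ∉ S → Has Q M v (∑ i ∈ S, p i z) := by
      intro S
      induction S using Finset.induction_on with
      | empty =>
        intro _ _
        rw [Finset.sum_empty]
        exact has_zero hv
      | insert i S hi ih =>
        intro hcS hdS
        simp only [Finset.mem_insert, not_or] at hcS hdS
        rw [Finset.sum_insert hi]
        exact (hV i (Ne.symm hcS.1) (Ne.symm hdS.1) _ (h.mem i z)).add (ih hcS.2 hdS.2)
    have hzsum : z = (∑ i ∈ (Finset.univ : Finset (Fin t)) \ {c, d}, p i z) + z' := by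
      rw [hz', ← Finset.sum_pair (f := fun i => p i z) hcd, Finset.sum_sdiff (Finset.subset_univ _), h.sum]
    have hz'H : Has Q M v z' := by
      have h1 : Has Q M u z' := (hU c hca hcb _ (h.mem c z)).add (hU d hda hdb _ (h.mem d z))
      obtain ⟨b', hb', hub'⟩ := (h.nondegOn hG.nondeg a).exists_polar_eq (h.mem a u) hua 1
      have h2 : Has Q M v b' := hV a (Ne.symm hca) (Ne.symm hda) b' hb'
      have hub1 : polar Q u b' = 1 := by rw [h.polar_left a u hb']; exact hub'
      have huv : polar Q u v = 0 := by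
        have hus : u = p a u + p b u := by
          refine h.ext fun k => ?_
          rw [map_add]
          by_cases hka : k = a
          · subst hka
            rw [h.self k _ (h.mem k u), h.other k b hab _ (h.mem b u), add_zero]
          by_cases hkb : k = b
          · subst hkb
            rw [h.self k _ (h.mem k u), h.other k a hka _ (h.mem a u), zero_add]
          rw [hup k hka hkb, h.other k a hka _ (h.mem a u), h.other k b hkb _ (h.mem b u), add_zero]
        rw [hus, polar_add_left, h.polar_right a v (h.mem a u), h.polar_right b v (h.mem b u),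
          hvp a (Ne.symm hca) (Ne.symm hda), hvp b (Ne.symm hcb) (Ne.symm hdb), polar_zero_right,
          polar_zero_right, add_zero]
      have hz'v : polar Q z' v = 0 := by rw [polar_comm]; exact hvz'
      have hz'b : polar Q z' b' = 0 := by
        rw [hz', polar_add_left, h.orth c a hca _ (h.mem c z) b' hb',
          h.orth d a hda _ (h.mem d z) b' hb', add_zero]
      have h3 := h1.comm h2 huv hz'v
      rw [hub1, hz'b, zero_add, mul_one, one_smul] at h3
      have h4 : Has Q M v (Q z' • u) := by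
        have hus : u = p a u + p b u := by
          refine h.ext fun k => ?_
          rw [map_add]
          by_cases hka : k = a
          · subst hka
            rw [h.self k _ (h.mem k u), h.other k b hab _ (h.mem b u), add_zero]
          by_cases hkb : k = b
          · subst hkb
            rw [h.self k _ (h.mem k u), h.other k a hka _ (h.mem a u), zero_add]
          rw [hup k hka hkb, h.other k a hka _ (h.mem a u), h.other k b hkb _ (h.mem b u), add_zero]
        rw [hus, smul_add]
        exact (hV a (Ne.symm hca) (Ne.symm hda) _ ((D a).smul_mem _ (h.mem a u))).add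
          (hV b (Ne.symm hcb) (Ne.symm hdb) _ ((D b).smul_mem _ (h.mem b u)))
      have h5 := h3.add h4
      rwa [sub_add_cancel] at h5
    rw [hzsum]
    refine (hVsum _ ?_ ?_).add hz'H
    · simp
    · simp
  -- a pair of nonorthogonal singular vectors of `D c + D d`
  obtain ⟨v, hv, hvc, hvp⟩ := exists_sing_pair' h hrep hcd
  obtain ⟨e, he, hve⟩ := (h.nondegOn hG.nondeg c).exists_polar_eq (h.mem c v) hvc 1
  have he0 : e ≠ 0 := by
    rintro rfl
    rw [polar_zero_right] at hve
    exact zero_ne_one hve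
  have hQe := (hD c).ne he he0
  have hev : polar Q e v = 1 := by rw [h.polar_right c v he, polar_comm]; exact hve
  have hv' : Q (refl Q e hQe v) = 0 := by rw [mem_O.1 (refl_mem_O hQe)]; exact hv
  refine E_le_of_full_pair hG (full v hv hvp) (full (refl Q e hQe v) hv' ?_) ?_
  · intro i hic hid
    rw [h.proj_refl_ne hic he hQe, hvp i hic hid]
  · rw [refl_apply, polar_sub_right, polar_self', hv, polar_smul_right, hev, polar_comm Q v e, hev]
    simp only [mul_zero, mul_one, smul_eq_mul, zero_sub, ne_eq, neg_eq_zero, inv_eq_zero]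
    exact hQe

end Planes


section Free

/-- **Maximality, coordinate free.** -/
theorem maximal_free [Finite F] [FiniteDimensional F V] (hq : Nat.card F ≠ 3) (hG : Good Q)
    (horth : ∀ i j, i ≠ j → ∀ x ∈ D i, ∀ y ∈ D j, polar Q x y = 0) (hspan : iSup D = ⊤)
    (hrank : ∀ i, Module.finrank F (D i) = 2) (hanis : ∀ i, ∀ x ∈ D i, Q x = 0 → x = 0)
    (hiso : ∀ i j, ∃ e : D i ≃ₗ[F] D j, ∀ z : D i, Q (e z : V) = Q (z : V)) (ht : 5 ≤ t) :
    Cfsg.Geo.IsMaximalIn (E Q) (stabFamily D ⊓ E Q) := by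
  obtain ⟨p, h⟩ := exists_dec hG.nondeg horth hspan
  have hD : ∀ i, AP Q (D i) := fun i => ⟨hrank i, h.nondegOn hG.nondeg i, hanis i⟩
  have hrep : ∀ m : Fin t, ∀ v : F, v ≠ 0 → ∃ y ∈ D m, Q y = v := fun m v hv => by
    obtain ⟨y, hy, -, hQy⟩ := (hD m).exists_value v hv
    exact ⟨y, hy, hQy⟩
  refine ⟨lt_of_le_of_ne inf_le_right fun heq => ?_, fun M hM1 hM2 => ?_⟩
  · apply not_E_le hG h hrep (by omega)
    rw [← heq]
    exact inf_le_left
  · by_cases hR : Rigid Q D M
    · left
      exact le_antisymm (le_inf (le_stabFamily hq hG h hD (by omega) (hM2.trans E_le_O) hM1 hR) hM2)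
        hM1
    · right
      exact le_antisymm hM2 (E_le_of_not_rigid hq hG h hD hiso ht (hM2.trans E_le_O) hM1 hR)

end Free

section Geo

variable {ι : Type} [Fintype ι] [DecidableEq ι] {F : Type*} [Field F]

/-- **Orthogonal decompositions into anisotropic planes: the stabiliser in `Ω` is maximal.**
Any nondegenerate quadratic form over a finite field with `|F| ≠ 3`, dimension at least 9 (hence at least 10). -/
theorem decomposition_planes_maximal [Fintype F] (hq : Fintype.card F ≠ 3) {Q : (ι → F) → F}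
    (hQ : Cfsg.Geo.IsNondegenerateQuadraticForm Q) (hn : 9 ≤ Fintype.card ι) {t : ℕ}
    {D : Fin t → Submodule F (ι → F)} (hD : Cfsg.Geo.IsOrthogonalMDecomposition Q 2 D)
    (hminus : ∀ i, ¬ Cfsg.Geo.IsPlusTypeOn Q (D i)) :
    Cfsg.Geo.IsMaximalIn (Cfsg.Geo.omegaGL Q)
      (Cfsg.Geo.decompositionStabilizer D ⊓ Cfsg.Geo.omegaGL Q) := by
  have htk := Cfsg.Agent.H886.finrank_mdecomposition hD.decomp.decomp
  refine decompositionStabilizer_maximal hQ (by omega) D ?_
  rintro Q' rfl hG
  refine maximal_free (by rw [Nat.card_eq_fintype_card]; exact hq) hG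
    (fun i j hij x hx y hy => hD.decomp.orthogonal i j hij x hx y hy)
    hD.decomp.decomp.iSup_eq_top hD.decomp.decomp.finrank_eq
    (fun i => aniso_of_not_plus (fun c v => by rw [QuadraticMap.map_smul, smul_eq_mul])
      (hD.decomp.decomp.finrank_eq i) (hminus i))
    (fun i j => hD.isometric i j) (by omega)

end Geo

end Cfsg.Agent.H926.PlaneLow
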