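import Cfsg.Agent.H926.NondegLow
import Cfsg.Agent.H926.PlaneLow
import Cfsg.Agent.H926.Halves
import Cfsg.Agent.H926.HermLow
import Cfsg.Agent.H926.MinusA
import Cfsg.Agent.H888.SubfieldMax

/-!
Parts of the list of geometric maximal subgroups of `Ω₁₀⁻(q)`.
-/

set_option autoImplicit false

namespace Cfsg.Agent.H926.Om10

open Cfsg.Geo

variable {F : Type*} [Field F] [Fintype F] {Q : (Fin 10 → F) → F}

theorem part2 (hQ : IsNondegenerateQuadraticForm Q) (_ : Odd (Fintype.card F))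
    (W : Submodule F (Fin 10 → F)) (hW0 : W ≠ ⊥) (hW1 : W ≠ ⊤) (ho : Odd (Module.finrank F W))
    (h10 : 2 * Module.finrank F W ≠ 10) (hW : IsNondegenerateOn (QuadraticMap.polar Q) W) :
    IsMaximalIn (omegaGL Q) (subspaceStabilizer W ⊓ omegaGL Q) := by
  refine Cfsg.Agent.H926.NondegLow.nondegenerate_maximal hQ (by simp) W hW0 hW1 (by simpa using h10) hW ?_ ?_
  · rintro ⟨-, h2, -⟩
    rw [h2] at ho
    exact absurd ho (by decide)
  · rintro ⟨-, h2⟩
    have h3 : Module.finrank F W = 8 := by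
      rw [Fintype.card_fin] at h2
      omega
    rw [h3] at ho
    exact absurd ho (by decide)

theorem part3 (hQ : IsNondegenerateQuadraticForm Q) (W : Submodule F (Fin 10 → F))
    (h2 : Module.finrank F W = 2) (hW : IsNondegenerateOn (QuadraticMap.polar Q) W)
    (hm : ¬ IsPlusTypeOn Q W) :
    IsMaximalIn (omegaGL Q) (subspaceStabilizer W ⊓ omegaGL Q) := by
  refine Cfsg.Agent.H926.NondegLow.nondegenerate_maximal hQ (by simp) W ?_ ?_ (by simp [h2]) hW ?_ ?_
  · rintro rfl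
    simp at h2
  · rintro rfl
    simp at h2
  · rintro ⟨-, -, h3⟩
    exact hm h3
  · rintro ⟨-, h3⟩
    rw [h2, Fintype.card_fin] at h3
    omega

theorem part4 (hq : 4 ≤ Fintype.card F) (hQ : IsNondegenerateQuadraticForm Q)
    (W : Submodule F (Fin 10 → F)) (h2 : Module.finrank F W = 2)
    (hW : IsNondegenerateOn (QuadraticMap.polar Q) W) :
    IsMaximalIn (omegaGL Q) (subspaceStabilizer W ⊓ omegaGL Q) := by
  refine Cfsg.Agent.H926.NondegLow.nondegenerate_maximal hQ (by simp) W ?_ ?_ (by simp [h2]) hW ?_ ?_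
  · rintro rfl
    simp at h2
  · rintro rfl
    simp at h2
  · rintro ⟨h3, -⟩
    omega
  · rintro ⟨h3, -⟩
    omega

theorem part5 (hQ : IsNondegenerateQuadraticForm Q) (W : Submodule F (Fin 10 → F))
    (h2 : Module.finrank F W = 4) (hW : IsNondegenerateOn (QuadraticMap.polar Q) W) :
    IsMaximalIn (omegaGL Q) (subspaceStabilizer W ⊓ omegaGL Q) := by
  refine Cfsg.Agent.H926.NondegLow.nondegenerate_maximal hQ (by simp) W ?_ ?_ (by simp [h2]) hW ?_ ?_
  · rintro rfl
    simp at h2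
  · rintro rfl
    simp at h2
  · rintro ⟨-, h3, -⟩
    omega
  · rintro ⟨-, h3⟩
    rw [h2, Fintype.card_fin] at h3
    omega

theorem part8 (hQ : IsNondegenerateQuadraticForm Q) (hminus : ¬ IsPlusTypeOn Q ⊤)
    (hq : Fintype.card F ≠ 3) (D : Fin 5 → Submodule F (Fin 10 → F))
    (hD : IsOrthogonalMDecomposition Q 2 D) :
    IsMaximalIn (omegaGL Q) (decompositionStabilizer D ⊓ omegaGL Q) :=
  Cfsg.Agent.H926.PlaneLow.decomposition_planes_maximal hq hQ (by simp) hD fun i hp =>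
    hminus (Cfsg.Agent.H926.plus_of_member_plus hQ hD i hp)

theorem part13 (hQ : IsNondegenerateQuadraticForm Q) (F₀ : Subfield F) (r : ℕ)
    (P : Matrix.GeneralLinearGroup (Fin 10) F) (ζ : F) (hr : r.Prime)
    (hcard : Fintype.card F = Nat.card F₀ ^ r) (hζ : ζ ≠ 0)
    (hP : IsQuadFormRationalStructure (fun v : Fin 10 → F => ζ * Q v) F₀ P) :
    IsMaximalIn (omegaGL Q) (subfieldSubgroup F₀ P ⊓ omegaGL Q) :=
  Cfsg.Agent.H888.SubfieldMax.subfield_maximal (by simp) Q hQ F₀ r hr hcard P ζ hζ hP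

end Cfsg.Agent.H926.Om10
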